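import Cfsg.Agent.H319.KillAlt
import Cfsg.Agent.S1738

/-!
# Simple groups with a 2-component `2.Aₙ`: centralizers of involutions are not solvable (helper319)
-/

set_option autoImplicit false

open Cfsg Subgroup

namespace Cfsg.Agent.H319.Kill

/-- **`HasAltCover`**: in a simple group all centralizers of involutions are not solvable. -/
theorem altCover {G : Type*} [Group G] [Finite G] [IsSimpleGroup G]
    (hA : Cfsg.Agent.GH.Defs.HasAltCover G) {t : G}
    (ht : orderOf t = 2) : ¬ Group.IsSolvable ↥(centralizer ({t} : Set G)) := by
  have hO : oddCore G = ⊥ := by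
    rcases (Cfsg.Agent.Lib.Cores.pPrimeCore_normal (G := G) 2).eq_bot_or_eq_top with h | h
    · exact h
    · exfalso
      have h1 := Cfsg.Agent.Lib.Cores.pPrimeCore_coprime (G := G) 2
      rw [h, Nat.card_congr Subgroup.topEquiv.toEquiv] at h1
      have h2 : 2 ∣ Nat.card G := ht ▸ orderOf_dvd_natCard t
      have := Nat.Coprime.eq_one_of_dvd h1.symm h2
      omega
  by_cases hna : IsMulCommutative G
  · -- a commutative simple group has no such component
    exfalso
    obtain ⟨n, s, K, hn, hK, hsK, hcov⟩ := hA
    have hs := hcov.1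
    have hKc : ∀ a b : G, a * b = b * a := fun a b => hna.1.1 a b
    have h5 := not_solvable_alt n (by omega)
    obtain ⟨f⟩ := hcov.2.1
    apply h5
    refine solvable_congr f ?_
    have h6 : Group.IsSolvable G := Group.isSolvable_of_comm hKc
    infer_instance
  · exact altCover_of hna hO (fun h1 h2 t ht K hK htK n hn hc =>
      Cfsg.Agent.S1738.result h1 h2 t ht K hK htK n hn hc) hA ht

end Cfsg.Agent.H319.Kill
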